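import Cfsg.Agent.N2.SpK.Defs
import Cfsg.Agent.N2.Sp.Eng

/-!
# N2 (S3519), the sporadic rows: from the multipliers to the hypothesis of the engine (helper26)
-/

set_option autoImplicit false

namespace Cfsg.Agent.N2.SpK

open Cfsg Cfsg.Agent.TAB.Eng Cfsg.Agent.TAB.Use Cfsg.Agent.TH.Spor Cfsg.Agent.FP3 Cfsg.Agent.N2.Sp

variable {K : Type} [Group K] {D : Dat} {T : TD K D} {R : Rows} {L : List (ℕ × ℕ)}

/-- the check of the densities: `ν t * mu L t ≤ cnt t` -/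
noncomputable def okMu (D : Dat) (L : List (ℕ × ℕ)) (ν : List ℕ) : Bool :=
  allL (fun t => Nat.blt 0 (mu L t) && Nat.ble (ntd ν 0 t * mu L t) (D.cnt t)) (List.range D.n)

theorem Kap.den [Finite K] (hm : T.Mass) (h : Kap T L) {ν : List ℕ} (hν : okMu D L ν = true) : Den T ν := by
  intro A g
  have h1 := allL_spec hν _ (List.mem_range.2 (T.lt g))
  rw [Bool.and_eq_true, Nat.blt_eq, Nat.ble_eq] at h1
  have h2 := Nat.mul_le_mul_right (Nat.card A) (h.fx A g)
  refine Nat.le_of_mul_le_mul_left (le_trans ?_ (h2.trans (le_of_eq ?_))) h1.1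
  · calc _ = ntd ν 0 (T.ty g) * mu L (T.ty g) * (FP3.fx A g * Nat.card A) := by ring
      _ ≤ _ := by rw [mul_assoc (D.cnt _)]; exact Nat.mul_le_mul_right _ h1.2
  · rw [← hm.1, ← A.index_mul_card, mul_assoc, mul_right_comm]
    rfl

/-- **the hypothesis of the engine** -/
theorem InK.hy [Finite K] (h : InK K D R L) {ν : List ℕ} (hν : okMu D L ν = true) (hz : Sp.okZ D = true) :
    ∃ T : TD K D, Hy T R ν ∧ Unif T ∧ Kap T L := by
  obtain ⟨T, h1, h2, h3, h4⟩ := h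
  exact ⟨T, ⟨h1, h2, zero_of hz, h4.den h1 hν⟩, h3, h4⟩

end Cfsg.Agent.N2.SpK
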